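import Cfsg.Agent.Golay.OctKernel
import Cfsg.Agent.Golay.DodStab
import Cfsg.Agent.Golay.CosetData

/-!
Finite checks for the permutation module of the group of the Golay code.
-/

set_option autoImplicit false
set_option maxRecDepth 20000

namespace CfsgLib.H29.GolayModule

open CfsgLib.Golay

/-- The sixteen translations sum to a rank one map. -/
def sumOk : Bool := (List.range 24).all fun i => (List.range 24).all fun j =>
  (OctStab.transl.countP fun g => Nat.beq (g.getD j 0) i) % 2 ==
    (if !(octO.testBit i) && !(octO.testBit j) then 1 else 0)

theorem sum_ok : sumOk = true := by decide +kernel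

theorem par_code : (basis.all fun b => codeList.all fun c =>
    Nat.beq (popc (c &&& (b.2 ^^^ 16777215)) % 2) 0) = true := by decide +kernel

theorem par_syn : ((List.range 4096).all fun k => Nat.beq k 0 || !(Nat.beq (syn (4096 * k)) (4096 * k)) ||
    basis.any fun b => Nat.beq (popc ((4096 * k) &&& (b.2 ^^^ 16777215)) % 2) 1) = true := by
  decide +kernel

theorem basis_split : (basis.all fun b =>
    octList.any fun o => Nat.beq (popc (o ^^^ b.2)) 8) = true := by decide +kernel

theorem basis_octads : (basis.all fun b => Nat.beq (popc b.2) 8 && inCode b.2 &&
    Nat.blt b.2 16777216) = true := by decide +kernel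

theorem dod_pair : (dodList.any fun d => Nat.beq (popc (d ^^^ DodStab.sqD)) 8) = true := by decide +kernel

/-- Some table moves every nonzero coset. -/
def moveOk (gens : List (List ℕ)) : Bool :=
  (List.range 4096).all fun k => !(Nat.beq (syn (4096 * k)) (4096 * k)) || Nat.beq k 0 ||
    gens.any fun g => !(Nat.beq (syn (actTab g (4096 * k))) (4096 * k))

theorem move_oct : moveOk OctStab.gens = true := by decide +kernel

theorem move_dod : (gensOk DodStab.gensA0 [DodStab.sqD] && moveOk DodStab.gensA0) = true := by
  decide +kernel

theorem move_all : (gensOk [gen0, gen1, gen2] [] && moveOk [gen0, gen1, gen2]) = true := by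
  decide +kernel

end CfsgLib.H29.GolayModule
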