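import Cfsg.Agent.H29.GolayModule.Data
import Cfsg.Agent.Golay.Cosets

/-!
Invariant subspaces of the permutation module of the group of the Golay code.
-/

set_option autoImplicit false

namespace CfsgLib.H29.GolayModule

open Cfsg CfsgLib.Golay
open scoped Pointwise

/-- Words. -/
abbrev Wd := GolayPt → ZMod 2

theorem wmask_eq_of (s : Finset GolayPt) : wmask (wordOf s) = mask s := by
  rw [wmask, support_wordOf]

theorem wordOf_add (s t : Finset GolayPt) : wordOf s + wordOf t = wordOf (symmDiff s t) :=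
  wmask_injective (by rw [wmask_add, wmask_eq_of, wmask_eq_of, wmask_eq_of, mask_symmDiff])

theorem act_wordOf (σ : Equiv.Perm GolayPt) (s : Finset GolayPt) :
    (fun p => wordOf s (σ.symm p)) = wordOf (σ • s) :=
  wmask_injective (by rw [wmask_comp, wmask_eq_of, support_wordOf])

/-- An invariant subspace. -/
def Inv (W : Submodule (ZMod 2) Wd) : Prop :=
  ∀ σ ∈ M24, ∀ w ∈ W, (fun p => w (σ.symm p)) ∈ W

theorem Inv.smul {W : Submodule (ZMod 2) Wd} (hW : Inv W) {σ : Equiv.Perm GolayPt} (hσ : σ ∈ M24)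
    {s : Finset GolayPt} (hs : wordOf s ∈ W) : wordOf (σ • s) ∈ W :=
  act_wordOf σ s ▸ hW σ hσ _ hs

theorem mem_symmDiff_W {W : Submodule (ZMod 2) Wd} {s t : Finset GolayPt} (hs : wordOf s ∈ W)
    (ht : wordOf t ∈ W) : wordOf (symmDiff s t) ∈ W := wordOf_add s t ▸ add_mem hs ht

/-- The parity of a word off a set. -/
def par (o : Finset GolayPt) (w : Wd) : ZMod 2 := ∑ q, if q ∈ o then 0 else w q

theorem par_eq (o : Finset GolayPt) (w : Wd) : par o w = ((support₂ w \ o).card : ZMod 2) := by
  rw [Finset.natCast_card_filter' o w]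
where
  Finset.natCast_card_filter' (o : Finset GolayPt) (w : Wd) :
      ((support₂ w \ o).card : ZMod 2) = par o w := by
    rw [Finset.card_eq_sum_ones, Nat.cast_sum, ← Finset.sum_filter_univ_mem' (support₂ w \ o)]
    refine Finset.sum_congr rfl fun q _ => ?_
    simp only [Finset.mem_sdiff, support₂, Finset.mem_filter, Finset.mem_univ, true_and, Nat.cast_one]
    rcases (by decide : ∀ a : ZMod 2, a = 0 ∨ a = 1) (w q) with h | h <;>
      by_cases hq : q ∈ o <;> simp [h, hq]
  Finset.sum_filter_univ_mem' (s : Finset GolayPt) :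
      ∑ q : GolayPt, (if q ∈ s then (1 : ZMod 2) else 0) = ∑ _q ∈ s, ((1 : ℕ) : ZMod 2) := by
    rw [Finset.sum_ite_mem, Finset.univ_inter, Nat.cast_one]

theorem par_popc {o : Finset GolayPt} (w : Wd) :
    par o w = ((popc (wmask w &&& (mask o ^^^ 16777215)) : ℕ) : ZMod 2) := by
  rw [par_eq, wmask, ← mask_compl, ← mask_inter, popc_mask, Finset.sdiff_eq_inter_compl]

theorem par_add (o : Finset GolayPt) (v w : Wd) : par o (v + w) = par o v + par o w := by
  simp only [par, ← Finset.sum_add_distrib]
  exact Finset.sum_congr rfl fun q _ => by by_cases h : q ∈ o <;> simp [h]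

/-- The translation sum. -/
theorem sum_transl (w : Wd) (p : GolayPt) :
    ∑ t : Fin OctStab.transl.length, w ((permOf (OctStab.transl.get t)).symm p) =
      if p ∈ OctStab.O then 0 else par OctStab.O w := by
  classical
  have hv : ∀ t : Fin OctStab.transl.length, validTab (OctStab.transl.get t) = true :=
    fun t => (OctStab.transl_mem (List.get_mem _ _)).1
  have hexp : ∀ t : Fin OctStab.transl.length, w ((permOf (OctStab.transl.get t)).symm p) =
      ∑ q, if permOf (OctStab.transl.get t) q = p then w q else 0 := by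
    intro t
    simp only [Equiv.apply_eq_iff_eq_symm_apply, Finset.sum_ite_eq', Finset.mem_univ, if_true]
  simp only [hexp]
  rw [Finset.sum_comm]
  have hcount : ∀ q, (∑ t : Fin OctStab.transl.length,
      if permOf (OctStab.transl.get t) q = p then w q else 0) =
      if p ∈ OctStab.O then 0 else if q ∈ OctStab.O then 0 else w q := by
    intro q
    rw [← Finset.sum_filter, Finset.sum_const, nsmul_eq_mul]
    have h := List.all_eq_true.1 (List.all_eq_true.1 sum_ok _ (List.mem_range.2 (idx p).isLt)) _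
      (List.mem_range.2 (idx q).isLt)
    rw [beq_iff_eq] at h
    have hc : (Finset.univ.filter fun t : Fin OctStab.transl.length =>
        permOf (OctStab.transl.get t) q = p).card =
        OctStab.transl.countP (fun g => Nat.beq (g.getD (idx q).val 0) (idx p).val) := by
      rw [List.countP_eq_length_filter]
      conv_rhs => rw [← List.map_get_finRange OctStab.transl, List.filter_map, List.length_map]
      rw [← List.toFinset_card_of_nodup ((List.nodup_finRange _).filter _)]
      congr 1
      ext t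
      simp only [Finset.mem_filter, Finset.mem_univ, true_and, List.mem_toFinset, List.mem_filter,
        List.mem_finRange, Function.comp_apply]
      rw [Nat.beq_eq, ← idx_permOf (hv t), Fin.val_inj, idx_injective.eq_iff]
    rw [hc, ← ZMod.natCast_mod, h]
    simp only [mem_toSet]
    cases octO.testBit (idx p).val <;> cases octO.testBit (idx q).val <;> simp
  simp only [hcount, par]
  by_cases hp : p ∈ OctStab.O <;> simp [hp]

theorem compl_mem_of_par {W : Submodule (ZMod 2) Wd} (hW : Inv W) {w : Wd} (hw : w ∈ W)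
    {o : Finset GolayPt} (ho : o ∈ octads) (hp : par o w = 1) :
    ∀ o' ∈ octads, wordOf o'ᶜ ∈ W := by
  obtain ⟨g, hg, hgo⟩ := exists_map_octad ho OctStab.O_mem
  have hp' : par OctStab.O (fun p => w (g.symm p)) = 1 := by
    rw [← hp, par, par, ← Equiv.sum_comp g]
    refine Finset.sum_congr rfl fun q _ => ?_
    simp only [Equiv.symm_apply_apply]
    simp only [← hgo, ← Equiv.Perm.smul_def, Finset.smul_mem_smul_finset_iff]
  have hmem : (∑ t : Fin OctStab.transl.length,
      fun p => w (g.symm ((permOf (OctStab.transl.get t)).symm p))) ∈ W :=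
    sum_mem fun t _ => hW _ (OctStab.transl_mem (List.get_mem _ _)).2.1 _ (hW g hg w hw)
  have e : (∑ t : Fin OctStab.transl.length,
      fun p => w (g.symm ((permOf (OctStab.transl.get t)).symm p))) = wordOf OctStab.Oᶜ := by
    funext p
    rw [Finset.sum_apply, sum_transl (fun p => w (g.symm p)) p, hp', wordOf]
    by_cases h : p ∈ OctStab.O <;> simp [h]
  rw [e] at hmem
  intro o' ho'
  obtain ⟨k, hk, hko⟩ := exists_map_octad OctStab.O_mem ho'
  have := hW.smul hk hmem
  have e' : k • OctStab.Oᶜ = o'ᶜ := by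
    rw [← hko]
    ext x
    simp [← Finset.inv_smul_mem_iff]
  rwa [e'] at this

theorem code_le_of_split {W : Submodule (ZMod 2) Wd}
    (h : ∀ b ∈ basis, wordOf (toSet b.2) ∈ W) : golayCode ≤ W := by
  intro w hw
  have hlin : ∀ l : List (ℕ × ℕ), (∀ a ∈ l, a ∈ basis) → ∀ m ∈ allSums l,
      ∃ v ∈ W, wmask v = m := by
    intro l
    induction l with
    | nil => intro _ m hm; simp [allSums] at hm; exact ⟨0, zero_mem _, by rw [hm, wmask_zero]⟩
    | cons a r ih =>
      intro hl m hm
      have ih' := ih fun a ha => hl a (List.mem_cons_of_mem _ ha)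
      have hlt : a.2 < 2 ^ 24 := by
        have := List.all_eq_true.1 basis_octads a (hl a List.mem_cons_self)
        simp only [Bool.and_eq_true, Nat.blt_eq] at this
        exact this.2
      simp only [allSums, List.mem_append, List.mem_map] at hm
      rcases hm with hm | ⟨x, hx, rfl⟩
      · exact ih' m hm
      · obtain ⟨u, hu, rfl⟩ := ih' x hx
        exact ⟨wordOf (toSet a.2) + u, add_mem (h a (hl a List.mem_cons_self)) hu,
          by rw [wmask_add, wmask_eq_of, mask_toSet hlt]⟩
  obtain ⟨v, hv, e⟩ := hlin basis (fun a ha => ha) _ (mem_code_iff_list.1 hw)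
  rwa [← wmask_injective e]

theorem basis_mem (b : ℕ × ℕ) (hb : b ∈ basis) :
    b.2 < 2 ^ 24 ∧ inCode b.2 = true ∧ toSet b.2 ∈ octads := by
  have := List.all_eq_true.1 basis_octads b hb
  simp only [Bool.and_eq_true, Nat.blt_eq, Nat.beq_eq] at this
  refine ⟨this.2, this.1.2, ?_⟩
  rw [mem_octads_iff, mask_toSet this.2, mem_wtList]
  exact ⟨this.1.2, this.2, this.1.1⟩

theorem code_le_of_compl {W : Submodule (ZMod 2) Wd} (h : ∀ o ∈ octads, wordOf oᶜ ∈ W) :
    golayCode ≤ W := by
  refine code_le_of_split fun b hb => ?_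
  obtain ⟨hlt, hin, -⟩ := basis_mem b hb
  obtain ⟨o, ho, hp⟩ := List.any_eq_true.1 (List.all_eq_true.1 basis_split b hb)
  rw [Nat.beq_eq] at hp
  rw [mem_wtList] at ho
  have hlt2 : o ^^^ b.2 < 2 ^ 24 := Nat.xor_lt_two_pow ho.2.1 hlt
  have h1 : toSet o ∈ octads := by
    rw [mem_octads_iff, mask_toSet ho.2.1, mem_wtList]; exact ho
  have h2 : toSet (o ^^^ b.2) ∈ octads := by
    rw [mem_octads_iff, mask_toSet hlt2, mem_wtList]; exact ⟨inCode_xor ho.1 hin, hlt2, hp⟩
  have := mem_symmDiff_W (h _ h1) (h _ h2)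
  have e : symmDiff (toSet o)ᶜ (toSet (o ^^^ b.2))ᶜ = toSet b.2 := by
    apply mask_injective
    rw [mask_symmDiff, mask_compl, mask_compl, mask_toSet ho.2.1, mask_toSet hlt2, mask_toSet hlt]
    apply Nat.eq_of_testBit_eq
    intro i
    simp only [Nat.testBit_xor]
    cases o.testBit i <;> cases b.2.testBit i <;> simp
  rwa [e] at this

/-- The coset representative of a word. -/
theorem exists_rep (w : Wd) : ∃ k < 4096, syn (4096 * k) = 4096 * k ∧
    w - wordOf (toSet (4096 * k)) ∈ golayCode ∧ (k = 0 → w ∈ golayCode) ∧ 4096 * k < 2 ^ 24 := by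
  obtain ⟨h1, h2⟩ := syn_range (m := wmask w) (mask_lt _)
  set r := syn (wmask w) with hr
  have hk : 4096 * (r / 4096) = r := Nat.mul_div_cancel' (Nat.dvd_of_mod_eq_zero h2)
  have hrr : syn r = r := by
    rw [hr]
    conv_lhs => rw [show syn (syn (wmask w)) = syn (wmask w ^^^ enc basis (wmask w)) from rfl, syn_xor]
    have : syn (enc basis (wmask w)) = 0 := by
      rw [syn, inCode_iff.1 ((mem_codeList.1 (enc_mem_allSums basis (wmask w))).1), Nat.xor_self]
    rw [this, Nat.xor_zero]
  have hmem : w - wordOf (toSet r) ∈ golayCode := by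
    rw [sub_mem_code_iff, support_wordOf, ← syn_eq_iff, mask_toSet h1, hrr, hr]
    rfl
  refine ⟨r / 4096, by omega, by rw [hk, hrr], by rw [hk]; exact hmem, fun h0 => ?_, by omega⟩
  have : r = 0 := by rw [← hk, h0]
  rw [this] at hmem
  have e : wordOf (toSet 0) = (0 : Wd) :=
    wmask_injective (by rw [wmask_eq_of, mask_toSet (by norm_num), wmask_zero])
  rwa [e, sub_zero] at hmem

theorem par_code_zero {c : Wd} (hc : c ∈ golayCode) {b : ℕ × ℕ} (hb : b ∈ basis) :
    par (toSet b.2) c = 0 := by
  have h := List.all_eq_true.1 (List.all_eq_true.1 par_code b hb) _ (mem_code_iff_list.1 hc)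
  rw [Nat.beq_eq] at h
  rw [par_popc, mask_toSet (basis_mem b hb).1, ← ZMod.natCast_mod, h, Nat.cast_zero]

theorem exists_par {w : Wd} (hw : w ∉ golayCode) : ∃ o ∈ octads, par o w = 1 := by
  obtain ⟨k, hk, hsyn, hmem, h0, hlt⟩ := exists_rep w
  have h := List.all_eq_true.1 par_syn k (List.mem_range.2 hk)
  simp only [Bool.or_eq_true, Nat.beq_eq, Bool.not_eq_true', List.any_eq_true] at h
  rcases h with (h | h) | ⟨b, hb, hp⟩
  · exact absurd (h0 h) hw
  · exact absurd hsyn (Nat.ne_of_beq_eq_false h)
  · refine ⟨toSet b.2, (basis_mem b hb).2.2, ?_⟩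
    have e : w = (w - wordOf (toSet (4096 * k))) + wordOf (toSet (4096 * k)) := (sub_add_cancel _ _).symm
    rw [e, par_add, par_code_zero hmem hb, zero_add, par_popc, wmask_eq_of, mask_toSet hlt,
      mask_toSet (basis_mem b hb).1, ← ZMod.natCast_mod, hp, Nat.cast_one]

theorem code_le_of_not {W : Submodule (ZMod 2) Wd} (hW : Inv W) {w : Wd} (hw : w ∈ W)
    (hn : w ∉ golayCode) : golayCode ≤ W := by
  obtain ⟨o, ho, hp⟩ := exists_par hn
  exact code_le_of_compl (compl_mem_of_par hW hw ho hp)

theorem one_eq_wordOf : (1 : Wd) = wordOf Finset.univ := funext fun p => by simp [wordOf]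

theorem code_le_of_code {W : Submodule (ZMod 2) Wd} (hW : Inv W) {w : Wd} (hw : w ∈ W)
    (hc : w ∈ golayCode) (h0 : w ≠ 0) (h1 : w ≠ 1) : golayCode ≤ W := by
  have hs : wordOf (support₂ w) ∈ W := by rwa [wordOf_support]
  have hin : inCode (mask (support₂ w)) = true := mem_code_iff.1 hc
  have hoct : ∀ {o : Finset GolayPt}, o ∈ octads → wordOf o ∈ W → golayCode ≤ W := by
    intro o ho hoW
    refine code_le_of_split fun b hb => ?_
    obtain ⟨g, hg, hgo⟩ := exists_map_octad ho (basis_mem b hb).2.2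
    exact hgo ▸ hW.smul hg hoW
  rcases weight_mem hc with h | h | h | h | h
  · exact absurd (hammingNorm_eq_zero.mp h) h0
  · exact hoct (mem_wordsOfWeight_iff.2 ⟨hin, h⟩) hs
  · have hd : support₂ w ∈ dodecads := mem_wordsOfWeight_iff.2 ⟨hin, h⟩
    have hall : ∀ d ∈ dodecads, wordOf d ∈ W := fun d hd' => by
      obtain ⟨g, hg, e⟩ := DodStab.exists_map_dodecad hd hd'
      exact e ▸ hW.smul hg hs
    obtain ⟨d, hdm, hp⟩ := List.any_eq_true.1 dod_pair
    rw [Nat.beq_eq] at hp
    rw [mem_wtList] at hdm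
    have hD := mem_dodecads_iff.1 DodStab.D_mem
    rw [mask_toSet DodStab.sqD_lt, mem_wtList] at hD
    have hlt2 : d ^^^ DodStab.sqD < 2 ^ 24 := Nat.xor_lt_two_pow hdm.2.1 DodStab.sqD_lt
    have hd1 : toSet d ∈ dodecads := by
      rw [mem_dodecads_iff, mask_toSet hdm.2.1, mem_wtList]; exact hdm
    refine hoct (o := toSet (d ^^^ DodStab.sqD)) ?_ ?_
    · rw [mem_octads_iff, mask_toSet hlt2, mem_wtList]; exact ⟨inCode_xor hdm.1 hD.1, hlt2, hp⟩
    · have := mem_symmDiff_W (hall _ hd1) (hall _ DodStab.D_mem)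
      rwa [show symmDiff (toSet d) DodStab.D = toSet (d ^^^ DodStab.sqD) from mask_injective (by
        rw [mask_symmDiff, mask_toSet hdm.2.1, mask_toSet DodStab.sqD_lt, mask_toSet hlt2])] at this
  · have hin' : inCode (mask (support₂ w)ᶜ) = true := by
      rw [mask_compl]
      refine inCode_xor hin ?_
      rw [← wmask_one]; exact mem_code_iff.1 (Submodule.subset_span (Or.inr rfl))
    have ho : (support₂ w)ᶜ ∈ octads := mem_wordsOfWeight_iff.2
      ⟨hin', by rw [Finset.card_compl, card_pt, ← hammingNorm_eq_card, h]⟩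
    refine code_le_of_compl fun o' ho' => ?_
    obtain ⟨g, hg, hgo⟩ := exists_map_octad ho ho'
    have e : g • support₂ w = o'ᶜ := by
      rw [← hgo]
      ext x
      simp [← Finset.inv_smul_mem_iff]
    exact e ▸ hW.smul hg hs
  · refine absurd ?_ h1
    rw [one_eq_wordOf, ← wordOf_support w]
    congr 1
    refine Finset.eq_univ_of_card _ ?_
    rw [card_pt, ← hammingNorm_eq_card, h]

theorem even_le {W : Submodule (ZMod 2) Wd} (hW : Inv W)
    (hpair : ∀ a b : GolayPt, a ≠ b → wordOf {a, b} ∈ W) {w : Wd} (hw : ∑ p, w p = 0) : w ∈ W := by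
  classical
  set p0 : GolayPt := none
  have e : w = ∑ p ∈ Finset.univ.erase p0, w p • wordOf {p, p0} := by
    funext q
    rw [Finset.sum_apply]
    by_cases hq : q = p0
    · subst hq
      have : ∀ p ∈ Finset.univ.erase p0, (w p • wordOf {p, p0}) p0 = w p := fun p _ => by
        simp [wordOf]
      rw [Finset.sum_congr rfl this]
      rw [← Finset.add_sum_erase _ _ (Finset.mem_univ p0)] at hw
      exact (by decide : ∀ a b : ZMod 2, a + b = 0 → a = b) _ _ hw
    · rw [Finset.sum_eq_single q]
      · simp [wordOf]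
      · intro p _ hp; simp [wordOf, hq, Ne.symm hp]
      · intro h; exact absurd (Finset.mem_erase.mpr ⟨hq, Finset.mem_univ _⟩) h
  rw [e]
  exact sum_mem fun p hp => W.smul_mem _ (hpair p p0 (Finset.mem_erase.mp hp).1)

theorem small_mem {W : Submodule (ZMod 2) Wd} (hW : Inv W) {s t : Finset GolayPt}
    (hs : wordOf s ∈ W) (h5 : s.card ≤ 5) (h : s.card = t.card) : wordOf t ∈ W := by
  obtain ⟨g, hg, e⟩ := exists_map_set h5 h
  exact e ▸ hW.smul hg hs

theorem classify (W : Submodule (ZMod 2) Wd) (hW : Inv W) :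
    W = ⊥ ∨ W = Submodule.span (ZMod 2) {fun _ => (1 : ZMod 2)} ∨ W = golayCode ∨
      (W : Set Wd) = {w | ∑ p, w p = 0} ∨ W = ⊤ := by
  classical
  by_cases hle : W ≤ golayCode
  · by_cases hex : ∃ w ∈ W, w ≠ 0 ∧ w ≠ 1
    · obtain ⟨w, hw, h0, h1⟩ := hex
      exact Or.inr (Or.inr (Or.inl (le_antisymm hle (code_le_of_code hW hw (hle hw) h0 h1))))
    · push Not at hex
      by_cases h1 : (1 : Wd) ∈ W
      · refine Or.inr (Or.inl (le_antisymm (fun w hw => ?_) ?_))
        · by_cases h0 : w = 0
          · rw [h0]; exact zero_mem _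
          · rw [hex w hw h0]; exact Submodule.mem_span_singleton_self _
        · rw [Submodule.span_le, Set.singleton_subset_iff]; exact h1
      · refine Or.inl ((Submodule.eq_bot_iff _).mpr fun w hw => ?_)
        by_contra h0
        exact h1 (hex w hw h0 ▸ hw)
  · obtain ⟨w, hw, hn⟩ := SetLike.not_le_iff_exists.mp hle
    have hC := code_le_of_not hW hw hn
    obtain ⟨t, ht4, htc⟩ := exists_leader (support₂ w)
    have htW : wordOf t ∈ W := by
      have hsub : w - wordOf t ∈ golayCode := by rw [sub_mem_code_iff, support_wordOf]; exact htc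
      have := W.sub_mem hw (hC hsub)
      rwa [sub_sub_cancel] at this
    have ht0 : t.card ≠ 0 := by
      intro h
      rw [Finset.card_eq_zero] at h
      subst h
      refine hn ?_
      have hsub : w - wordOf ∅ ∈ golayCode := by rw [sub_mem_code_iff, support_wordOf]; exact htc
      rwa [show wordOf (∅ : Finset GolayPt) = 0 from funext fun p => by simp [wordOf], sub_zero] at hsub
    obtain ⟨a, ha⟩ := Finset.card_pos.mp (Nat.pos_of_ne_zero ht0)
    obtain ⟨b, hb⟩ : ∃ b, b ∉ t := by
      by_contra h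
      push Not at h
      have := Finset.card_le_card (fun x _ => h x : (Finset.univ : Finset GolayPt) ⊆ t)
      rw [Finset.card_univ, card_pt] at this
      omega
    have hab : a ≠ b := fun h => hb (h ▸ ha)
    have hpair0 : wordOf {a, b} ∈ W := by
      have hcard : (insert b (t.erase a)).card = t.card := by
        rw [Finset.card_insert_of_notMem (fun h => hb (Finset.mem_of_mem_erase h)),
          Finset.card_erase_of_mem ha]
        omega
      have := mem_symmDiff_W htW (small_mem hW htW (by omega) hcard.symm)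
      have e : symmDiff t (insert b (t.erase a)) = {a, b} := by
        ext x
        simp only [Finset.mem_symmDiff, Finset.mem_insert, Finset.mem_erase, Finset.mem_singleton]
        by_cases h1 : x = a <;> by_cases h2 : x = b <;> by_cases h3 : x ∈ t <;> simp_all
      rwa [e] at this
    have hpair : ∀ x y : GolayPt, x ≠ y → wordOf {x, y} ∈ W := fun x y h =>
      small_mem hW hpair0 (by rw [Finset.card_pair hab]; norm_num)
        (by rw [Finset.card_pair hab, Finset.card_pair h])
    by_cases hodd : ∃ v ∈ W, ∑ p, v p ≠ 0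
    · obtain ⟨v, hv, hv1⟩ := hodd
      refine Or.inr (Or.inr (Or.inr (Or.inr (Submodule.eq_top_iff'.mpr fun u => ?_))))
      by_cases hu : ∑ p, u p = 0
      · exact even_le hW hpair hu
      · have : u - v ∈ W := even_le hW hpair (by
          simp only [Pi.sub_apply, Finset.sum_sub_distrib]
          revert hu hv1
          generalize ∑ p, u p = x
          generalize ∑ p, v p = y
          revert x y
          decide)
        simpa using W.add_mem this hv
    · push Not at hodd
      exact Or.inr (Or.inr (Or.inr (Or.inl (Set.ext fun v => ⟨hodd v, even_le hW hpair⟩))))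

/-- A set of tables moves a nonzero coset. -/
theorem exists_move {gens : List (List ℕ)} {fixd : List ℕ} (hlt : ∀ m ∈ fixd, m < 2 ^ 24)
    (hg : gensOk gens fixd = true) (hm : moveOk gens = true) {w : Wd} (hw : w ∉ golayCode) :
    ∃ σ ∈ fixGroup fixd, (fun p => w (σ.symm p)) - w ∉ golayCode := by
  obtain ⟨k, hk, hsyn, hmem, h0, hlt'⟩ := exists_rep w
  have h := List.all_eq_true.1 hm k (List.mem_range.2 hk)
  simp only [Bool.or_eq_true, Nat.beq_eq, Bool.not_eq_true', List.any_eq_true] at h
  rcases h with (h | h) | ⟨g, hgm, hne⟩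
  · exact absurd hsyn (Nat.ne_of_beq_eq_false h)
  · exact absurd (h0 h) hw
  · obtain ⟨hv, hσ⟩ := permOf_mem_fixGroup hlt hg hgm
    refine ⟨permOf g, hσ, fun hcon => Nat.ne_of_beq_eq_false hne ?_⟩
    set r := wordOf (toSet (4096 * k)) with hr
    have hc := (mem_M24_iff.1 (mem_fixGroup.1 hσ).1) _ hmem
    have hsub : (fun p => r ((permOf g).symm p)) - r ∈ golayCode := by
      have := golayCode.sub_mem (golayCode.add_mem hcon hmem) hc
      convert this using 1
      funext p
      simp only [Pi.sub_apply, Pi.add_apply]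
      ring
    rw [hr, act_wordOf, sub_mem_code_iff, support_wordOf, support_wordOf, ← syn_eq_iff,
      mask_smul hv, mask_toSet hlt', hsyn] at hsub
    exact hsub

theorem stab_moves (u : Wd) (hu : u ∈ golayCode) (w : Wd) (hw : w ∉ golayCode) :
    ∃ σ ∈ M24, (fun p => u (σ.symm p)) = u ∧ (fun p => w (σ.symm p)) - w ∉ golayCode := by
  classical
  have key : ∀ (s : Finset GolayPt) (gens : List (List ℕ)) (m : ℕ), m < 2 ^ 24 →
      gensOk gens [m] = true → moveOk gens = true → (∃ g ∈ M24, g • s = toSet m) →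
      ∃ σ ∈ M24, σ • s = s ∧ (fun p => w (σ.symm p)) - w ∉ golayCode := by
    intro s gens m hm h1 h2 ⟨g, hg, hgs⟩
    have hw' : (fun p => w (g.symm p)) ∉ golayCode := fun hc => hw (by
      have := (mem_M24_iff.1 (inv_mem hg)) _ hc
      simpa [Equiv.Perm.inv_def] using this)
    obtain ⟨τ, hτ, hne⟩ := exists_move (fixd := [m]) (by simpa using hm) h1 h2 hw'
    obtain ⟨hτ1, hτ2⟩ := mem_fixGroup.1 hτ
    refine ⟨g⁻¹ * τ * g, mul_mem (mul_mem (inv_mem hg) hτ1) hg, ?_, fun hcon => hne ?_⟩
    · rw [mul_smul, mul_smul, hgs, hτ2 m List.mem_cons_self, inv_smul_eq_iff, hgs]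
    · have := (mem_M24_iff.1 hg) _ hcon
      convert this using 1
      funext p
      simp [Equiv.Perm.inv_def, Equiv.Perm.mul_def, Equiv.symm_trans_apply]
  have fix : ∀ σ : Equiv.Perm GolayPt, σ • support₂ u = support₂ u →
      (fun p => u (σ.symm p)) = u := fun σ h => by
    conv_lhs => rw [← wordOf_support u]
    rw [act_wordOf, h, wordOf_support]
  have hin : inCode (mask (support₂ u)) = true := mem_code_iff.1 hu
  have hall : (support₂ u = ∅ ∨ support₂ u = Finset.univ) →
      ∃ σ ∈ M24, (fun p => u (σ.symm p)) = u ∧ (fun p => w (σ.symm p)) - w ∉ golayCode := by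
    intro h
    have h1 := Bool.and_eq_true_iff.1 move_all
    obtain ⟨σ, hσ, hne⟩ := exists_move (fixd := []) (by simp) h1.1 h1.2 hw
    refine ⟨σ, (mem_fixGroup.1 hσ).1, fix σ ?_, hne⟩
    rcases h with h | h <;> rw [h] <;> simp
  rcases weight_mem hu with h | h | h | h | h <;> rw [hammingNorm_eq_card] at h
  · exact hall (Or.inl (Finset.card_eq_zero.mp h))
  · obtain ⟨σ, h1, h2, h3⟩ := key (support₂ u) OctStab.gens octO OctStab.octO_lt OctStab.gens_ok
      move_oct (exists_map_octad (mem_wordsOfWeight_iff.2 ⟨hin, h⟩) OctStab.O_mem)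
    exact ⟨σ, h1, fix σ h2, h3⟩
  · have h1 := Bool.and_eq_true_iff.1 move_dod
    obtain ⟨σ, h1', h2, h3⟩ := key (support₂ u) DodStab.gensA0 DodStab.sqD DodStab.sqD_lt h1.1 h1.2
      (DodStab.exists_map_dodecad (mem_wordsOfWeight_iff.2 ⟨hin, h⟩) DodStab.D_mem)
    exact ⟨σ, h1', fix σ h2, h3⟩
  · have hin' : inCode (mask (support₂ u)ᶜ) = true := by
      rw [mask_compl]
      refine inCode_xor hin ?_
      rw [← wmask_one]; exact mem_code_iff.1 (Submodule.subset_span (Or.inr rfl))
    have ho : (support₂ u)ᶜ ∈ octads := mem_wordsOfWeight_iff.2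
      ⟨hin', by rw [Finset.card_compl, card_pt, h]⟩
    obtain ⟨σ, h1, h2, h3⟩ := key (support₂ u)ᶜ OctStab.gens octO OctStab.octO_lt OctStab.gens_ok
      move_oct (exists_map_octad ho OctStab.O_mem)
    refine ⟨σ, h1, fix σ ?_, h3⟩
    ext x
    have := congrArg (fun s : Finset GolayPt => x ∈ s) h2
    simp only [← Finset.inv_smul_mem_iff, Finset.mem_compl, eq_iff_iff, not_iff_not] at this ⊢
    exact this
  · exact hall (Or.inr (Finset.eq_univ_of_card _ (by rw [card_pt, h])))

end CfsgLib.H29.GolayModule
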